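import Cfsg.Agent.Comp.Y555.A.Main
import Cfsg.Agent.Comp.Y555.B.Main
import Cfsg.Agent.Comp.Y555.C.Main
import Cfsg.Agent.Comp.Cox
import Cfsg.Prelude.Def_Spor_M

set_option autoImplicit false
set_option maxRecDepth 100000

namespace Cfsg.Agent.Comp.Y555
open Cfsg.Agent.Comp

theorem ev_reverse {G : Type*} [Group G] {s : ℕ → G} {w : List ℕ} (h : ∀ y ∈ w, s y * s y = 1) :
    ev s w.reverse = (ev s w)⁻¹ := by
  induction w with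
  | nil => simp
  | cons y w ih =>
    rw [List.reverse_cons, ev_append, ih fun x hx => h x (by simp [hx]), ev_cons, ev_cons, ev_nil,
      mul_one, mul_inv_rev, inv_eq_of_mul_eq_one_right (h y (by simp))]

theorem comm_rel {G : Type*} [Group G] {s : ℕ → G} {R : List (List ℕ)} (hs : Sat s R)
    {f g : List ℕ} {x : ℕ} (h1 : f ++ g.reverse ∈ R) (h2 : ∀ y ∈ f, [y, y] ∈ R)
    (h3 : ∀ y ∈ g, [y, y] ∈ R ∧ [x, y, x, y] ∈ R) (h4 : [x, x] ∈ R) :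
    ev s (f ++ [x] ++ f.reverse ++ [x]) = 1 := by
  have sq : ∀ y, [y, y] ∈ R → s y * s y = 1 := fun y hy => by simpa using hs _ hy
  have e1 := hs _ h1
  rw [ev_append, ev_reverse fun y hy => sq y (h3 y hy).1, mul_inv_eq_one] at e1
  have c : ev s g ∈ Subgroup.centralizer {s x} := ev_mem fun y hy => by
    rw [Subgroup.mem_centralizer_singleton_iff]
    have a : s x * s y * (s x * s y) = 1 := by simpa [mul_assoc] using hs _ (h3 y hy).2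
    have b : s x * s y * (s y * s x) = 1 := by
      rw [mul_assoc, ← mul_assoc (s y), sq y (h3 y hy).1, one_mul, sq x h4]
    exact mul_left_cancel (b.trans a.symm)
  rw [Subgroup.mem_centralizer_singleton_iff, ← e1] at c
  rw [ev_append, ev_append, ev_append, ev_reverse fun y hy => sq y (h2 y hy), ev_single, c,
    mul_inv_cancel_right, sq x h4]

def R : List (List Nat) :=
  [[0, 0],
   [1, 1],
   [2, 2],
   [3, 3],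
   [4, 4],
   [5, 5],
   [6, 6],
   [7, 7],
   [8, 8],
   [9, 9],
   [10, 10],
   [11, 11],
   [12, 12],
   [13, 13],
   [14, 14],
   [15, 15],
   [0, 1, 0, 1, 0, 1],
   [0, 2, 0, 2],
   [0, 3, 0, 3],
   [0, 4, 0, 4],
   [0, 5, 0, 5],
   [0, 6, 0, 6, 0, 6],
   [0, 7, 0, 7],
   [0, 8, 0, 8],
   [0, 9, 0, 9],
   [0, 10, 0, 10],
   [0, 11, 0, 11, 0, 11],
   [0, 12, 0, 12],
   [0, 13, 0, 13],
   [0, 14, 0, 14],
   [0, 15, 0, 15],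
   [1, 0, 1, 0, 1, 0],
   [1, 2, 1, 2, 1, 2],
   [1, 3, 1, 3],
   [1, 4, 1, 4],
   [1, 5, 1, 5],
   [1, 6, 1, 6],
   [1, 7, 1, 7],
   [1, 8, 1, 8],
   [1, 9, 1, 9],
   [1, 10, 1, 10],
   [1, 11, 1, 11],
   [1, 12, 1, 12],
   [1, 13, 1, 13],
   [1, 14, 1, 14],
   [1, 15, 1, 15],
   [2, 0, 2, 0],
   [2, 1, 2, 1, 2, 1],
   [2, 3, 2, 3, 2, 3],
   [2, 4, 2, 4],
   [2, 5, 2, 5],
   [2, 6, 2, 6],
   [2, 7, 2, 7],
   [2, 8, 2, 8],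
   [2, 9, 2, 9],
   [2, 10, 2, 10],
   [2, 11, 2, 11],
   [2, 12, 2, 12],
   [2, 13, 2, 13],
   [2, 14, 2, 14],
   [2, 15, 2, 15],
   [3, 0, 3, 0],
   [3, 1, 3, 1],
   [3, 2, 3, 2, 3, 2],
   [3, 4, 3, 4, 3, 4],
   [3, 5, 3, 5],
   [3, 6, 3, 6],
   [3, 7, 3, 7],
   [3, 8, 3, 8],
   [3, 9, 3, 9],
   [3, 10, 3, 10],
   [3, 11, 3, 11],
   [3, 12, 3, 12],
   [3, 13, 3, 13],
   [3, 14, 3, 14],
   [3, 15, 3, 15],
   [4, 0, 4, 0],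
   [4, 1, 4, 1],
   [4, 2, 4, 2],
   [4, 3, 4, 3, 4, 3],
   [4, 5, 4, 5, 4, 5],
   [4, 6, 4, 6],
   [4, 7, 4, 7],
   [4, 8, 4, 8],
   [4, 9, 4, 9],
   [4, 10, 4, 10],
   [4, 11, 4, 11],
   [4, 12, 4, 12],
   [4, 13, 4, 13],
   [4, 14, 4, 14],
   [4, 15, 4, 15],
   [5, 0, 5, 0],
   [5, 1, 5, 1],
   [5, 2, 5, 2],
   [5, 3, 5, 3],
   [5, 4, 5, 4, 5, 4],
   [5, 6, 5, 6],
   [5, 7, 5, 7],
   [5, 8, 5, 8],
   [5, 9, 5, 9],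
   [5, 10, 5, 10],
   [5, 11, 5, 11],
   [5, 12, 5, 12],
   [5, 13, 5, 13],
   [5, 14, 5, 14],
   [5, 15, 5, 15],
   [6, 0, 6, 0, 6, 0],
   [6, 1, 6, 1],
   [6, 2, 6, 2],
   [6, 3, 6, 3],
   [6, 4, 6, 4],
   [6, 5, 6, 5],
   [6, 7, 6, 7, 6, 7],
   [6, 8, 6, 8],
   [6, 9, 6, 9],
   [6, 10, 6, 10],
   [6, 11, 6, 11],
   [6, 12, 6, 12],
   [6, 13, 6, 13],
   [6, 14, 6, 14],
   [6, 15, 6, 15],
   [7, 0, 7, 0],
   [7, 1, 7, 1],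
   [7, 2, 7, 2],
   [7, 3, 7, 3],
   [7, 4, 7, 4],
   [7, 5, 7, 5],
   [7, 6, 7, 6, 7, 6],
   [7, 8, 7, 8, 7, 8],
   [7, 9, 7, 9],
   [7, 10, 7, 10],
   [7, 11, 7, 11],
   [7, 12, 7, 12],
   [7, 13, 7, 13],
   [7, 14, 7, 14],
   [7, 15, 7, 15],
   [8, 0, 8, 0],
   [8, 1, 8, 1],
   [8, 2, 8, 2],
   [8, 3, 8, 3],
   [8, 4, 8, 4],
   [8, 5, 8, 5],
   [8, 6, 8, 6],
   [8, 7, 8, 7, 8, 7],
   [8, 9, 8, 9, 8, 9],
   [8, 10, 8, 10],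
   [8, 11, 8, 11],
   [8, 12, 8, 12],
   [8, 13, 8, 13],
   [8, 14, 8, 14],
   [8, 15, 8, 15],
   [9, 0, 9, 0],
   [9, 1, 9, 1],
   [9, 2, 9, 2],
   [9, 3, 9, 3],
   [9, 4, 9, 4],
   [9, 5, 9, 5],
   [9, 6, 9, 6],
   [9, 7, 9, 7],
   [9, 8, 9, 8, 9, 8],
   [9, 10, 9, 10, 9, 10],
   [9, 11, 9, 11],
   [9, 12, 9, 12],
   [9, 13, 9, 13],
   [9, 14, 9, 14],
   [9, 15, 9, 15],
   [10, 0, 10, 0],
   [10, 1, 10, 1],
   [10, 2, 10, 2],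
   [10, 3, 10, 3],
   [10, 4, 10, 4],
   [10, 5, 10, 5],
   [10, 6, 10, 6],
   [10, 7, 10, 7],
   [10, 8, 10, 8],
   [10, 9, 10, 9, 10, 9],
   [10, 11, 10, 11],
   [10, 12, 10, 12],
   [10, 13, 10, 13],
   [10, 14, 10, 14],
   [10, 15, 10, 15],
   [11, 0, 11, 0, 11, 0],
   [11, 1, 11, 1],
   [11, 2, 11, 2],
   [11, 3, 11, 3],
   [11, 4, 11, 4],
   [11, 5, 11, 5],
   [11, 6, 11, 6],
   [11, 7, 11, 7],
   [11, 8, 11, 8],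
   [11, 9, 11, 9],
   [11, 10, 11, 10],
   [11, 12, 11, 12, 11, 12],
   [11, 13, 11, 13],
   [11, 14, 11, 14],
   [11, 15, 11, 15],
   [12, 0, 12, 0],
   [12, 1, 12, 1],
   [12, 2, 12, 2],
   [12, 3, 12, 3],
   [12, 4, 12, 4],
   [12, 5, 12, 5],
   [12, 6, 12, 6],
   [12, 7, 12, 7],
   [12, 8, 12, 8],
   [12, 9, 12, 9],
   [12, 10, 12, 10],
   [12, 11, 12, 11, 12, 11],
   [12, 13, 12, 13, 12, 13],
   [12, 14, 12, 14],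
   [12, 15, 12, 15],
   [13, 0, 13, 0],
   [13, 1, 13, 1],
   [13, 2, 13, 2],
   [13, 3, 13, 3],
   [13, 4, 13, 4],
   [13, 5, 13, 5],
   [13, 6, 13, 6],
   [13, 7, 13, 7],
   [13, 8, 13, 8],
   [13, 9, 13, 9],
   [13, 10, 13, 10],
   [13, 11, 13, 11],
   [13, 12, 13, 12, 13, 12],
   [13, 14, 13, 14, 13, 14],
   [13, 15, 13, 15],
   [14, 0, 14, 0],
   [14, 1, 14, 1],
   [14, 2, 14, 2],
   [14, 3, 14, 3],
   [14, 4, 14, 4],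
   [14, 5, 14, 5],
   [14, 6, 14, 6],
   [14, 7, 14, 7],
   [14, 8, 14, 8],
   [14, 9, 14, 9],
   [14, 10, 14, 10],
   [14, 11, 14, 11],
   [14, 12, 14, 12],
   [14, 13, 14, 13, 14, 13],
   [14, 15, 14, 15, 14, 15],
   [15, 0, 15, 0],
   [15, 1, 15, 1],
   [15, 2, 15, 2],
   [15, 3, 15, 3],
   [15, 4, 15, 4],
   [15, 5, 15, 5],
   [15, 6, 15, 6],
   [15, 7, 15, 7],
   [15, 8, 15, 8],
   [15, 9, 15, 9],
   [15, 10, 15, 10],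
   [15, 11, 15, 11],
   [15, 12, 15, 12],
   [15, 13, 15, 13],
   [15, 14, 15, 14, 15, 14],
   [0, 1, 2, 0, 6, 7, 0, 11, 12, 0, 1, 2, 0, 6, 7, 0, 11, 12, 0, 1, 2, 0, 6, 7, 0, 11, 12, 0, 1, 2, 0, 6, 7, 0, 11, 12, 0, 1, 2, 0, 6, 7, 0, 11, 12, 0, 1, 2, 0, 6, 7, 0, 11, 12, 0, 1, 2, 0, 6, 7, 0, 11, 12, 0, 1, 2, 0, 6, 7, 0, 11, 12, 0, 1, 2, 0, 6, 7, 0, 11, 12, 0, 1, 2, 0, 6, 7, 0, 11, 12]]

def lt : List (Cfsg.Spor.Bimonster.Gen × Bool) := [(.a, true), (.b1, true), (.c1, true), (.d1, true), (.e1, true), (.f1, true), (.b2, true), (.c2, true), (.d2, true), (.e2, true), (.f2, true), (.b3, true), (.c3, true), (.d3, true), (.e3, true), (.f3, true)]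

def all : List Cfsg.Spor.Bimonster.Gen := [.a, .b1, .c1, .d1, .e1, .f1, .b2, .c2, .d2, .e2, .f2, .b3, .c3, .d3, .e3, .f3]

def e : Cfsg.Spor.Bimonster.Gen → Nat
  | .a => 0
  | .b1 => 1
  | .c1 => 2
  | .d1 => 3
  | .e1 => 4
  | .f1 => 5
  | .b2 => 6
  | .c2 => 7
  | .d2 => 8
  | .e2 => 9
  | .f2 => 10
  | .b3 => 11
  | .c3 => 12
  | .d3 => 13
  | .e3 => 14
  | .f3 => 15

def iv : Nat := 677582165103132179601393696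

/-- the spider relator -/
abbrev spider : List (FreeGroup Cfsg.Spor.Bimonster.Gen) :=
  [(Cfsg.Spor.Bimonster.a * Cfsg.Spor.Bimonster.b1 * Cfsg.Spor.Bimonster.c1 * Cfsg.Spor.Bimonster.a * Cfsg.Spor.Bimonster.b2 * Cfsg.Spor.Bimonster.c2 * Cfsg.Spor.Bimonster.a * Cfsg.Spor.Bimonster.b3 * Cfsg.Spor.Bimonster.c3) ^ 10]

/-- the letters -/
noncomputable def s : ℕ → Cfsg.Spor.CoxPresented Cfsg.Spor.Bimonster.Gen Cfsg.Spor.Bimonster.edges spider := coxS Cfsg.Spor.Bimonster.edges spider lt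

theorem presAll : IsPres s 16 R ∧ (∀ x, s (e x) = PresentedGroup.of x) ∧
    ∀ r, PresentedGroup.mk _ r = ev s (freeWord e iv r) :=
  isPres_cox (all := all) (by intro x; cases x <;> decide) (by decide +kernel)

def sp : List Nat := [0, 1, 2, 0, 6, 7, 0, 11, 12, 0, 1, 2, 0, 6, 7, 0, 11, 12, 0, 1, 2, 0, 6, 7, 0, 11, 12, 0, 1, 2, 0, 6, 7, 0, 11, 12, 0, 1, 2, 0, 6, 7, 0, 11, 12, 0, 1, 2, 0, 6, 7, 0, 11, 12, 0, 1, 2, 0, 6, 7, 0, 11, 12, 0, 1, 2, 0, 6, 7, 0, 11, 12, 0, 1, 2, 0, 6, 7, 0, 11, 12, 0, 1, 2, 0, 6, 7, 0, 11, 12]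

def R1 : List (List Nat) := R ++ [sp.drop 3 ++ sp.take 3, sp.drop 6 ++ sp.take 6]

theorem sat1 : Sat s R1 := by
  have h : ev s sp = 1 := presAll.1.sat _ (by decide +kernel)
  refine presAll.1.sat.append fun w hw => ?_
  simp only [List.mem_cons, List.not_mem_nil, or_false] at hw
  rcases hw with rfl | rfl
  · exact ev_rot h 3
  · exact ev_rot h 6

def f0 : List Nat := [0, 1, 6, 11, 2, 7, 3, 0, 1, 6, 11, 2, 7, 3, 0, 1, 6, 11, 2, 7, 3, 0, 1, 6, 11, 2, 7, 3, 0, 1, 6, 11, 2, 7, 3, 0, 1, 6, 11, 2, 7, 3, 0, 1, 6, 11, 2, 7, 3, 0, 1, 6, 11, 2, 7, 3, 0, 1, 6, 11, 2, 7, 3]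

def g0 : List Nat := [0, 1, 11, 6, 2, 12, 3, 0, 1, 11, 6, 2, 12, 3, 0, 1, 11, 6, 2, 12, 3, 0, 1, 11, 6, 2, 12, 3, 0, 1, 11, 6, 2, 12, 3, 0, 1, 11, 6, 2, 12, 3, 0, 1, 11, 6, 2, 12, 3, 0, 1, 11, 6, 2, 12, 3, 0, 1, 11, 6, 2, 12, 3]

theorem a0 : Sat s (R1 ++ [f0 ++ g0.reverse]) :=
  sat1.append (A.der.use sat1 [0, 1, 2, 3, 6, 7, 11, 12] (by decide +kernel) (by decide +kernel))

theorem b0 : Sat s ((R1 ++ [f0 ++ g0.reverse]) ++ [f0 ++ [8] ++ f0.reverse ++ [8]]) :=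
  a0.append fun w hw => by
    rw [List.mem_singleton.mp hw]
    exact comm_rel (g := g0) a0 (by decide +kernel) (by decide +kernel) (by decide +kernel) (by decide +kernel)

theorem c0 : Sat s ((R1 ++ [f0 ++ g0.reverse]) ++ [wpow (f0 ++ [4]) 3]) :=
  a0.append (B.der.use b0 [0, 1, 2, 3, 4, 6, 7, 8, 11] (by decide +kernel) (by decide +kernel))

theorem d0 : Sat s [5 :: f0.reverse, 5 :: g0.reverse] :=
  C.der.use c0 [0, 1, 2, 3, 4, 5, 6, 7, 11, 12] (by decide +kernel) (by decide +kernel)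

def f1 : List Nat := [0, 6, 11, 1, 7, 12, 8, 0, 6, 11, 1, 7, 12, 8, 0, 6, 11, 1, 7, 12, 8, 0, 6, 11, 1, 7, 12, 8, 0, 6, 11, 1, 7, 12, 8, 0, 6, 11, 1, 7, 12, 8, 0, 6, 11, 1, 7, 12, 8, 0, 6, 11, 1, 7, 12, 8, 0, 6, 11, 1, 7, 12, 8]

def g1 : List Nat := [0, 6, 1, 11, 7, 2, 8, 0, 6, 1, 11, 7, 2, 8, 0, 6, 1, 11, 7, 2, 8, 0, 6, 1, 11, 7, 2, 8, 0, 6, 1, 11, 7, 2, 8, 0, 6, 1, 11, 7, 2, 8, 0, 6, 1, 11, 7, 2, 8, 0, 6, 1, 11, 7, 2, 8, 0, 6, 1, 11, 7, 2, 8]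

theorem a1 : Sat s (R1 ++ [f1 ++ g1.reverse]) :=
  sat1.append (A.der.use sat1 [0, 6, 7, 8, 11, 12, 1, 2] (by decide +kernel) (by decide +kernel))

theorem b1 : Sat s ((R1 ++ [f1 ++ g1.reverse]) ++ [f1 ++ [13] ++ f1.reverse ++ [13]]) :=
  a1.append fun w hw => by
    rw [List.mem_singleton.mp hw]
    exact comm_rel (g := g1) a1 (by decide +kernel) (by decide +kernel) (by decide +kernel) (by decide +kernel)

theorem c1 : Sat s ((R1 ++ [f1 ++ g1.reverse]) ++ [wpow (f1 ++ [9]) 3]) :=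
  a1.append (B.der.use b1 [0, 6, 7, 8, 9, 11, 12, 13, 1] (by decide +kernel) (by decide +kernel))

theorem d1 : Sat s [10 :: f1.reverse, 10 :: g1.reverse] :=
  C.der.use c1 [0, 6, 7, 8, 9, 10, 11, 12, 1, 2] (by decide +kernel) (by decide +kernel)

def f2 : List Nat := [0, 11, 1, 6, 12, 2, 13, 0, 11, 1, 6, 12, 2, 13, 0, 11, 1, 6, 12, 2, 13, 0, 11, 1, 6, 12, 2, 13, 0, 11, 1, 6, 12, 2, 13, 0, 11, 1, 6, 12, 2, 13, 0, 11, 1, 6, 12, 2, 13, 0, 11, 1, 6, 12, 2, 13, 0, 11, 1, 6, 12, 2, 13]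

def g2 : List Nat := [0, 11, 6, 1, 12, 7, 13, 0, 11, 6, 1, 12, 7, 13, 0, 11, 6, 1, 12, 7, 13, 0, 11, 6, 1, 12, 7, 13, 0, 11, 6, 1, 12, 7, 13, 0, 11, 6, 1, 12, 7, 13, 0, 11, 6, 1, 12, 7, 13, 0, 11, 6, 1, 12, 7, 13, 0, 11, 6, 1, 12, 7, 13]

theorem a2 : Sat s (R1 ++ [f2 ++ g2.reverse]) :=
  sat1.append (A.der.use sat1 [0, 11, 12, 13, 1, 2, 6, 7] (by decide +kernel) (by decide +kernel))

theorem b2 : Sat s ((R1 ++ [f2 ++ g2.reverse]) ++ [f2 ++ [3] ++ f2.reverse ++ [3]]) :=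
  a2.append fun w hw => by
    rw [List.mem_singleton.mp hw]
    exact comm_rel (g := g2) a2 (by decide +kernel) (by decide +kernel) (by decide +kernel) (by decide +kernel)

theorem c2 : Sat s ((R1 ++ [f2 ++ g2.reverse]) ++ [wpow (f2 ++ [14]) 3]) :=
  a2.append (B.der.use b2 [0, 11, 12, 13, 14, 1, 2, 3, 6] (by decide +kernel) (by decide +kernel))

theorem d2 : Sat s [15 :: f2.reverse, 15 :: g2.reverse] :=
  C.der.use c2 [0, 11, 12, 13, 14, 15, 1, 2, 6, 7] (by decide +kernel) (by decide +kernel)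

theorem fin : Sat s (Cfsg.Spor.Bimonster.extra.map (freeWord e iv)) :=
  (((sat1.append d0).append d1).append d2).mono (by decide +kernel)

end Cfsg.Agent.Comp.Y555
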